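-- Team project OTSP (S5973), package [FIXODD] (helper61): the fixing criterion for one element,
-- `i` odd (glue of SPLIT, DIMI, SUBI, TSBD, NHYP, WCA), plus the common lemmas for [FIXEV].
import Cfsg.Agent.Lib.Helper99.OTSP.Defs2

set_option autoImplicit false
open scoped MatrixGroups
open Matrix

namespace Cfsg.Agent.Lib.Helper61.OTSP

open Cfsg.Agent.Lib.Helper23.OHyp Cfsg.Agent.Lib.Helper99.OTSP

universe u

theorem ordI_pos_otsp {q r : ℕ} (hr : r.Prime) (hrq : ¬ r ∣ q) : 0 < ordI q r := by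
  have : Fact r.Prime := ⟨hr⟩
  unfold ordI
  rw [orderOf_pos_iff, isOfFinOrder_iff_pow_eq_one]
  refine ⟨r - 1, by have := hr.two_le; omega, ?_⟩
  apply ZMod.pow_card_sub_one_eq_one
  rwa [Ne, ZMod.natCast_eq_zero_iff]

section

variable {F : Type u} [Field F] {ι : Type} [Fintype ι] [DecidableEq ι]

theorem mem_fixSp_iff {y : Matrix ι ι F} {v : ι → F} : v ∈ fixSp y ↔ y *ᵥ v = v := by
  unfold fixSp
  rw [LinearMap.mem_ker, LinearMap.sub_apply, Matrix.toLin'_apply, sub_eq_zero]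
  rfl

theorem finrank_fix_add_mov (y : Matrix ι ι F) (hc : IsCompl (fixSp y) (movSp y)) :
    Module.finrank F ↥(fixSp y) + Module.finrank F ↥(movSp y) = Fintype.card ι := by
  rw [Submodule.finrank_add_eq_of_isCompl hc, Module.finrank_fintype_fun_eq_card]

theorem eq_one_of_mov (y : Matrix ι ι F) (h : Module.finrank F ↥(movSp y) = 0) : y = 1 := by
  have h1 : movSp y = ⊥ := Submodule.finrank_eq_zero.mp h
  unfold movSp at h1
  rw [LinearMap.range_eq_bot] at h1
  have h2 : Matrix.toLin' y = 1 := sub_eq_zero.mp h1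
  have h3 : Matrix.toLin' y = Matrix.toLin' (1 : Matrix ι ι F) := by
    rw [h2, Matrix.toLin'_one]; rfl
  exact Matrix.toLin'.injective h3

omit [DecidableEq ι] in
theorem finrank_split {C N W : Submodule F (ι → F)} (hc : IsCompl C N)
    (hW : (W ⊓ C) ⊔ (W ⊓ N) = W) :
    Module.finrank F ↥W = Module.finrank F ↥(W ⊓ C) + Module.finrank F ↥(W ⊓ N) := by
  have h := Submodule.finrank_sup_add_finrank_inf_eq (W ⊓ C) (W ⊓ N)
  have h0 : (W ⊓ C) ⊓ (W ⊓ N) = ⊥ := by
    rw [eq_bot_iff]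
    intro v hv
    have h1 : v ∈ C ⊓ N :=
      ⟨(Submodule.mem_inf.mp (Submodule.mem_inf.mp hv).1).2,
        (Submodule.mem_inf.mp (Submodule.mem_inf.mp hv).2).2⟩
    rw [hc.inf_eq_bot] at h1
    exact h1
  rw [hW, h0, finrank_bot, add_zero] at h
  exact h

/-- A totally singular subspace of the fixed space plus an invariant totally singular subspace
of the moved space is an invariant totally singular subspace. -/
theorem fixTS_sup {Q : (ι → F) → F} {y : Matrix ι ι F} (hperp : Perp Q (fixSp y) (movSp y))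
    (hc : IsCompl (fixSp y) (movSp y)) {U L : Submodule F (ι → F)} (hU : U ≤ fixSp y)
    (hUts : TS Q U) (hL : L ≤ movSp y) (hLinv : Inv y L) (hLts : TS Q L) {m : ℕ}
    (hm : Module.finrank F ↥U + Module.finrank F ↥L = m) : FixTS Q m y := by
  refine ⟨U ⊔ L, ?_, ?_, ?_⟩
  · have h := Submodule.finrank_sup_add_finrank_inf_eq U L
    have h0 : U ⊓ L = ⊥ := by
      rw [eq_bot_iff]
      intro v hv
      have h1 : v ∈ fixSp y ⊓ movSp y :=
        ⟨hU (Submodule.mem_inf.mp hv).1, hL (Submodule.mem_inf.mp hv).2⟩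
      rw [hc.inf_eq_bot] at h1
      exact h1
    rw [h0, finrank_bot, add_zero] at h
    omega
  · intro w hw
    obtain ⟨a, ha, l, hl, rfl⟩ := Submodule.mem_sup.mp hw
    have h1 : QuadraticMap.polar Q a l = 0 := hperp a (hU ha) l (hL hl)
    unfold QuadraticMap.polar at h1
    rw [hUts a ha, hLts l hl] at h1
    simpa using h1
  · rw [Submodule.map_sup]
    apply sup_le_sup
    · intro v hv
      obtain ⟨a, ha, rfl⟩ := Submodule.mem_map.mp hv
      rw [Matrix.toLin'_apply, mem_fixSp_iff.mp (hU ha)]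
      exact ha
    · exact hLinv

end

/-- [FIXODD] -/
theorem pkgFixOdd_of (hSp : Cfsg.Agent.Lib.Helper99.OTSP.PkgSplit.{u})
    (hD : Cfsg.Agent.Lib.Helper99.OTSP.PkgDimI.{u}) (hSu : Cfsg.Agent.Lib.Helper99.OTSP.PkgSubI.{u})
    (hT : Cfsg.Agent.Lib.Helper99.OTSP.PkgTsBd.{u}) (hN : Cfsg.Agent.Lib.Helper99.OTSP.PkgNHyp.{u})
    (hW : Cfsg.Agent.Lib.Helper99.OTSP.PkgWCa.{u}) :
    Cfsg.Agent.Lib.Helper99.OTSP.PkgFixOdd.{u} := by
  intro F _ _ ι _ _ Q r y hStd hplus d hd hodd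
  obtain ⟨hperp, hc, hNinv, hNdC, hNdN, hsplit⟩ := hSp F ι Q r y hStd
  obtain ⟨L, hLN, hLinv, hLts, hLdim⟩ := hN F ι Q r y hStd hodd
  have hi : 0 < ordI (Fintype.card F) r := ordI_pos_otsp hStd.prime hStd.ndvd
  obtain ⟨j, hj⟩ := hD F ι Q r y hStd L hLN hLinv
  have hsum := finrank_fix_add_mov y hc
  have hNdim : Module.finrank F ↥(movSp y) = 2 * (ordI (Fintype.card F) r * j) := by omega
  have hplusN : Plus Q (movSp y) := ⟨L, hLN, hLts, hLdim⟩
  refine ⟨j, ?_, ?_, hNdim, ?_⟩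
  · omega
  · intro hy1
    by_contra hj0
    have hj00 : j = 0 := by omega
    apply hy1
    apply eq_one_of_mov
    rw [hNdim, hj00, Nat.mul_zero, Nat.mul_zero]
  · intro m
    constructor
    · rintro ⟨W, hWm, hWts, hWinv⟩
      obtain ⟨hWsplit, hWNinv⟩ := hsplit W hWinv
      obtain ⟨s, hs⟩ := hD F ι Q r y hStd (W ⊓ movSp y) inf_le_right hWNinv
      have hdim := finrank_split hc hWsplit
      have hb1 := hT F ι Q hStd.nondeg (movSp y) (W ⊓ movSp y) hNdN inf_le_right
        (fun w hw => hWts w (Submodule.mem_inf.mp hw).1)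
      have hb2 := hT F ι Q hStd.nondeg (fixSp y) (W ⊓ fixSp y) hNdC inf_le_right
        (fun w hw => hWts w (Submodule.mem_inf.mp hw).1)
      refine ⟨s, ?_, ?_, ?_⟩
      · have h1 : ordI (Fintype.card F) r * s ≤ ordI (Fintype.card F) r * j := by omega
        exact Nat.le_of_mul_le_mul_left h1 hi
      · omega
      · omega
    · rintro ⟨s, hsj, hsm, hle⟩
      obtain ⟨L', hL'L, hL'inv, hL'dim⟩ := hSu F ι Q r y hStd L hLN hLinv s
        (by rw [hj]; exact Nat.mul_le_mul_left _ hsj)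
      obtain ⟨U, hUC, hUts, hUdim⟩ := hW F ι Q hStd.nondeg hplus (fixSp y) (movSp y) hperp hc
        hplusN (m - ordI (Fintype.card F) r * s) (by omega)
      exact fixTS_sup hperp hc hUC hUts (hL'L.trans hLN) hL'inv
        (fun w hw => hLts w (hL'L hw)) (by omega)

end Cfsg.Agent.Lib.Helper61.OTSP
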