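-- Team project OTSP (S5973), package [PRIM] (helper61): an invariant subspace of the moved space
-- of dimension > i t contains an invariant subspace M of dimension 2 i all of whose nonzero
-- vectors lie in invariant subspaces of dimension i.  Route: the restriction g of y to R' is
-- killed by the r-th cyclotomic polynomial, which is squarefree with t irreducible factors of
-- degree i (Mathlib); primary decomposition, pigeonhole with DIMI, SUBI, cyclic subspaces.
import Cfsg.Agent.Lib.Helper99.OTSP.PairsDefs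
import Cfsg.Agent.Lib.Helper61.OTSP.FixOdd

set_option autoImplicit false
open scoped MatrixGroups
open Matrix Polynomial UniqueFactorizationMonoid

namespace Cfsg.Agent.Lib.Helper61.OTSP

open Cfsg.Agent.Lib.Helper23.OHyp Cfsg.Agent.Lib.Helper99.OTSP

universe u

section core

variable {F : Type u} [Field F] {V W : Type*} [AddCommGroup V] [Module F V]
  [AddCommGroup W] [Module F W]

/-- Polynomials in intertwined endomorphisms are intertwined. -/
theorem aeval_intertwine (T : Module.End F V) (g : Module.End F W) (j : W →ₗ[F] V)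
    (h : ∀ w, T (j w) = j (g w)) (P : F[X]) (w : W) : aeval T P (j w) = j (aeval g P w) := by
  have hpow : ∀ (n : ℕ) (w : W), (T ^ n) (j w) = j ((g ^ n) w) := by
    intro n
    induction n with
    | zero => intro w; simp
    | succ k ih =>
      intro w
      rw [pow_succ, pow_succ, Module.End.mul_apply, Module.End.mul_apply, h, ih]
  induction P using Polynomial.induction_on' with
  | add p q hp hq => rw [map_add, map_add, LinearMap.add_apply, LinearMap.add_apply, hp, hq, map_add]
  | monomial n a =>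
    rw [aeval_monomial, aeval_monomial, Module.End.mul_apply, Module.End.mul_apply,
      Module.algebraMap_end_apply, Module.algebraMap_end_apply, hpow, map_smul]

/-- An invariant subspace is invariant under polynomials. -/
theorem aeval_mem_of_inv {T : Module.End F V} {M : Submodule F V} (hM : ∀ x ∈ M, T x ∈ M)
    (f : F[X]) {v : V} (hv : v ∈ M) : aeval T f v ∈ M := by
  have h := aeval_intertwine T (T.restrict hM) M.subtype (fun w => rfl) f ⟨v, hv⟩
  have h2 : aeval T f v = ((aeval (T.restrict hM) f ⟨v, hv⟩ : M) : V) := h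
  rw [h2]
  exact Submodule.coe_mem _

theorem ker_aeval_prod (g : Module.End F W) (S : Finset F[X])
    (h : ∀ a ∈ S, ∀ b ∈ S, a ≠ b → IsCoprime a b) :
    LinearMap.ker (aeval g (∏ π ∈ S, π)) = S.sup (fun π => LinearMap.ker (aeval g π)) := by
  classical
  induction S using Finset.induction_on with
  | empty =>
    rw [Finset.prod_empty, Finset.sup_empty, map_one]
    exact LinearMap.ker_id
  | insert a s ha ih =>
    have hcop : IsCoprime a (∏ π ∈ s, π) := by
      apply IsCoprime.prod_right
      intro b hb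
      exact h a (Finset.mem_insert_self a s) b (Finset.mem_insert_of_mem hb)
        (by rintro rfl; exact ha hb)
    rw [Finset.prod_insert ha, Finset.sup_insert,
      ← sup_ker_aeval_eq_ker_aeval_mul_of_coprime g hcop,
      ih (fun x hx z hz => h x (Finset.mem_insert_of_mem hx) z (Finset.mem_insert_of_mem hz))]

theorem finrank_sup_le_sum [FiniteDimensional F W] {α : Type*} (S : Finset α)
    (f : α → Submodule F W) :
    Module.finrank F ↥(S.sup f) ≤ ∑ a ∈ S, Module.finrank F ↥(f a) := by
  classical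
  induction S using Finset.induction_on with
  | empty => simp
  | insert a s ha ih =>
    rw [Finset.sup_insert, Finset.sum_insert ha]
    exact (Submodule.finrank_add_le_finrank_add_finrank _ _).trans (Nat.add_le_add_left ih _)

/-- The cyclic subspace of a vector killed by a monic polynomial of degree `i`. -/
theorem exists_cyc_inv {T : Module.End F V} (π : F[X]) (hπ : π.Monic) {i : ℕ} (hi : 0 < i)
    (hdeg : π.natDegree = i) (M : Submodule F V) (hM : ∀ x ∈ M, T x ∈ M) (v : V) (hv : v ∈ M)
    (hπv : aeval T π v = 0) :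
    ∃ U : Submodule F V, U ≤ M ∧ (∀ x ∈ U, T x ∈ U) ∧ v ∈ U ∧ Module.finrank F U ≤ i := by
  classical
  obtain ⟨φ, hφ⟩ : ∃ φ : F[X] →ₗ[F] V, ∀ f, φ f = aeval T f v :=
    ⟨(LinearMap.applyₗ v).comp (aeval T).toLinearMap, fun f => rfl⟩
  have hred : ∀ f : F[X], φ f = φ (f %ₘ π) := by
    intro f
    have h1 := Polynomial.modByMonic_add_div f π
    have h2 : φ f = φ (f %ₘ π) + φ (π * (f /ₘ π)) := by rw [← map_add, h1]
    have h3 : φ (π * (f /ₘ π)) = 0 := by
      rw [hφ, mul_comm, map_mul, Module.End.mul_apply, hπv, map_zero]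
    rw [h2, h3, add_zero]
  have hmod : ∀ f : F[X], f %ₘ π ∈ Polynomial.degreeLT F i := by
    intro f
    rw [Polynomial.mem_degreeLT]
    have h1 := Polynomial.degree_modByMonic_lt f hπ
    rwa [Polynomial.degree_eq_natDegree hπ.ne_zero, hdeg] at h1
  refine ⟨(Polynomial.degreeLT F i).map φ, ?_, ?_, ?_, ?_⟩
  · rintro _ ⟨f, -, rfl⟩
    rw [hφ]
    exact aeval_mem_of_inv hM f hv
  · rintro _ ⟨f, -, rfl⟩
    have h1 : T (φ f) = φ (X * f) := by
      rw [hφ, hφ, map_mul, aeval_X, Module.End.mul_apply]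
    rw [h1, hred]
    exact Submodule.mem_map_of_mem (hmod _)
  · refine ⟨1, ?_, ?_⟩
    · rw [SetLike.mem_coe, Polynomial.mem_degreeLT, Polynomial.degree_one]
      exact_mod_cast hi
    · rw [hφ, map_one]
      rfl
  · have hfin : Module.Finite F ↥(Polynomial.degreeLT F i) :=
      Module.Finite.equiv (Polynomial.degreeLTEquiv F i).symm
    calc Module.finrank F ↥((Polynomial.degreeLT F i).map φ)
        ≤ Module.finrank F ↥(Polynomial.degreeLT F i) := Submodule.finrank_map_le φ _
      _ = i := by rw [(Polynomial.degreeLTEquiv F i).finrank_eq, Module.finrank_fin_fun]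

/-- The core of [PRIM] for an endomorphism `T` with `T ^ r = 1`. -/
theorem prim_core [Fintype F] [FiniteDimensional F V] (r : ℕ) (hr : r.Prime)
    (hrq : ¬ r ∣ Fintype.card F) (T : Module.End F V) (hT : T ^ r = 1)
    (R' : Submodule F V) (hR'inv : ∀ x ∈ R', T x ∈ R') (hR'N : R' ≤ LinearMap.range (T - 1))
    (hdiv : ∀ K : Submodule F V, K ≤ R' → (∀ x ∈ K, T x ∈ K) →
      ordI (Fintype.card F) r ∣ Module.finrank F K)
    (hbig : ordI (Fintype.card F) r * ((r - 1) / ordI (Fintype.card F) r) <
      Module.finrank F R') :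
    ∃ (π : F[X]) (K : Submodule F V), π.Monic ∧ π.natDegree = ordI (Fintype.card F) r ∧
      K ≤ R' ∧ (∀ x ∈ K, T x ∈ K) ∧ 2 * ordI (Fintype.card F) r ≤ Module.finrank F K ∧
      ∀ v ∈ K, aeval T π v = 0 := by
  classical
  obtain ⟨p, hchar⟩ := CharP.exists F
  obtain ⟨f, hp, hcard⟩ := FiniteField.card F p
  have : Fact p.Prime := ⟨hp⟩
  have : Fact r.Prime := ⟨hr⟩
  have hrp : r ≠ p := by
    rintro rfl
    exact hrq (hcard ▸ dvd_pow_self r f.ne_zero)
  have hcop : p.Coprime r := (Nat.coprime_primes hp hr).2 (Ne.symm hrp)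
  have hrF : (r : F) ≠ 0 := by
    intro h
    rw [CharP.cast_eq_zero_iff F p r] at h
    exact hrp ((Nat.prime_dvd_prime_iff_eq hp hr).1 h).symm
  have : NeZero (r : F) := ⟨hrF⟩
  have hord : orderOf (ZMod.unitOfCoprime _ (hcop.pow_left f)) = ordI (Fintype.card F) r := by
    unfold ordI
    rw [← orderOf_units, ZMod.coe_unitOfCoprime, hcard]
  -- the cyclotomic polynomial kills the range of T - 1
  have h1 : ∀ v ∈ LinearMap.range (T - 1), aeval T (cyclotomic r F) v = 0 := by
    rintro _ ⟨a, rfl⟩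
    have h2 : aeval T (cyclotomic r F * (X - 1)) = 0 := by
      rw [cyclotomic_prime_mul_X_sub_one F r, map_sub, map_pow, aeval_X, map_one, hT, sub_self]
    have h3 : aeval T (cyclotomic r F) ((T - 1) a) =
        (aeval T (cyclotomic r F * (X - 1))) a := by
      rw [map_mul, Module.End.mul_apply, map_sub, aeval_X, map_one]
    rw [h3, h2, LinearMap.zero_apply]
  -- the restriction
  obtain ⟨g, hg⟩ : ∃ g : Module.End F R', ∀ w : R', T (R'.subtype w) = R'.subtype (g w) :=
    ⟨T.restrict hR'inv, fun w => rfl⟩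
  have hΦ : aeval g (cyclotomic r F) = 0 := by
    apply LinearMap.ext
    intro w
    apply Subtype.ext
    have h := aeval_intertwine T g R'.subtype hg (cyclotomic r F) w
    have h' : ((aeval g (cyclotomic r F) w : R') : V) =
        aeval T (cyclotomic r F) (w : V) := h.symm
    rw [h', h1 (w : V) (hR'N w.2)]
    rfl
  have hcomm : ∀ (π : F[X]) (w : R'), aeval g π (g w) = g (aeval g π w) := by
    intro π w
    have e1 : aeval g (π * X) w = aeval g π (g w) := by
      rw [map_mul, aeval_X, Module.End.mul_apply]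
    have e2 : aeval g (X * π) w = g (aeval g π w) := by
      rw [map_mul, aeval_X, Module.End.mul_apply]
    rw [← e1, mul_comm, e2]
  -- the irreducible factors
  obtain ⟨S, hSdef⟩ : ∃ S : Finset F[X], S = (normalizedFactors (cyclotomic r F)).toFinset :=
    ⟨_, rfl⟩
  have hmem : ∀ π ∈ S, π ∈ normalizedFactors (cyclotomic r F) := fun π hπ =>
    Multiset.mem_toFinset.mp (hSdef ▸ hπ)
  have hΦ0 : cyclotomic r F ≠ 0 := cyclotomic_ne_zero r F
  have hirr : ∀ π ∈ S, Irreducible π := fun π hπ => irreducible_of_normalized_factor π (hmem π hπ)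
  have hmonic : ∀ π ∈ S, π.Monic := by
    intro π hπ
    have e1 := normalize_normalized_factor π (hmem π hπ)
    rw [← e1]
    exact Polynomial.monic_normalize (hirr π hπ).ne_zero
  have hdeg : ∀ π ∈ S, π.natDegree = ordI (Fintype.card F) r := by
    intro π hπ
    rw [natDegree_of_mem_normalizedFactors_cyclotomic hcard hcop (hmem π hπ), hord]
  have hScard : S.card = (r - 1) / ordI (Fintype.card F) r := by
    rw [hSdef, normalizedFactors_cyclotomic_card hcard hcop, hord, Nat.totient_prime hr]
  have hcopr : ∀ a ∈ S, ∀ b ∈ S, a ≠ b → IsCoprime a b := by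
    intro a ha b hb hab
    rw [(hirr a ha).coprime_iff_not_dvd]
    intro hd
    exact hab (eq_of_monic_of_associated (hmonic a ha) (hmonic b hb)
      ((hirr a ha).associated_of_dvd (hirr b hb) hd))
  have hsq : Squarefree (cyclotomic r F) := (separable_cyclotomic r F).squarefree
  have hnodup : (normalizedFactors (cyclotomic r F)).Nodup :=
    (squarefree_iff_nodup_normalizedFactors hΦ0).mp hsq
  have hprod : ∏ π ∈ S, π = (normalizedFactors (cyclotomic r F)).prod := by
    rw [hSdef, Finset.prod_eq_multiset_prod, Multiset.toFinset_val,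
      Multiset.dedup_eq_self.mpr hnodup, Multiset.map_id']
  have hdvd : cyclotomic r F ∣ ∏ π ∈ S, π := by
    rw [hprod]
    exact (prod_normalizedFactors hΦ0).symm.dvd
  have htop : S.sup (fun π => LinearMap.ker (aeval g π)) = ⊤ := by
    rw [← ker_aeval_prod g S hcopr]
    obtain ⟨c, hc⟩ := hdvd
    rw [hc, map_mul, hΦ, zero_mul, LinearMap.ker_zero]
  -- the primary components, as subspaces of `V`
  have hK : ∀ π : F[X], ∃ K : Submodule F V, K ≤ R' ∧ (∀ x ∈ K, T x ∈ K) ∧
      Module.finrank F K = Module.finrank F (LinearMap.ker (aeval g π)) ∧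
      ∀ v ∈ K, aeval T π v = 0 := by
    intro π
    refine ⟨(LinearMap.ker (aeval g π)).map R'.subtype, ?_, ?_, ?_, ?_⟩
    · rintro _ ⟨w, -, rfl⟩
      exact w.2
    · rintro _ ⟨w, hw, rfl⟩
      refine ⟨g w, ?_, (hg w).symm⟩
      rw [SetLike.mem_coe, LinearMap.mem_ker, hcomm, LinearMap.mem_ker.mp hw, map_zero]
    · exact Submodule.finrank_map_subtype_eq _ _
    · rintro _ ⟨w, hw, rfl⟩
      rw [aeval_intertwine T g R'.subtype hg π w, LinearMap.mem_ker.mp hw, map_zero]
  -- pigeonhole
  have hex : ∃ π ∈ S, 2 * ordI (Fintype.card F) r ≤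
      Module.finrank F (LinearMap.ker (aeval g π)) := by
    by_contra hcon
    push Not at hcon
    have hle : ∀ π ∈ S, Module.finrank F (LinearMap.ker (aeval g π)) ≤
        ordI (Fintype.card F) r := by
      intro π hπ
      obtain ⟨K, hKR, hKinv, hKdim, -⟩ := hK π
      obtain ⟨k, hk⟩ := hdiv K hKR hKinv
      have h2 := hcon π hπ
      rw [← hKdim, hk] at h2 ⊢
      have hk1 : k ≤ 1 := by
        by_contra hk2
        have hk3 : 2 ≤ k := by omega
        have hk4 := Nat.mul_le_mul_left (ordI (Fintype.card F) r) hk3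
        omega
      calc ordI (Fintype.card F) r * k ≤ ordI (Fintype.card F) r * 1 :=
            Nat.mul_le_mul_left _ hk1
        _ = ordI (Fintype.card F) r := Nat.mul_one _
    have h3 := finrank_sup_le_sum S (fun π => LinearMap.ker (aeval g π))
    rw [htop, finrank_top] at h3
    have h4 : ∑ π ∈ S, Module.finrank F (LinearMap.ker (aeval g π)) ≤
        S.card * ordI (Fintype.card F) r := by
      calc ∑ π ∈ S, Module.finrank F (LinearMap.ker (aeval g π))
          ≤ ∑ _π ∈ S, ordI (Fintype.card F) r := Finset.sum_le_sum hle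
        _ = S.card * ordI (Fintype.card F) r := by rw [Finset.sum_const, smul_eq_mul]
    rw [hScard, Nat.mul_comm] at h4
    omega
  obtain ⟨π, hπS, hπbig⟩ := hex
  obtain ⟨K, hKR, hKinv, hKdim, hKker⟩ := hK π
  exact ⟨π, K, hmonic π hπS, hdeg π hπS, hKR, hKinv, by rw [hKdim]; exact hπbig, hKker⟩

end core

/-- [PRIM] -/
theorem pkgPrim_of (hD : Cfsg.Agent.Lib.Helper99.OTSP.PkgDimI.{u})
    (hSu : Cfsg.Agent.Lib.Helper99.OTSP.PkgSubI.{u}) :
    Cfsg.Agent.Lib.Helper99.OTSP.PkgPrim.{u} := by
  intro F _ _ ι _ _ Q r y hStd R' hR'N hR'inv hbig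
  have hi : 0 < ordI (Fintype.card F) r := ordI_pos_otsp hStd.prime hStd.ndvd
  have hinv_iff : ∀ K : Submodule F (ι → F), (∀ x ∈ K, Matrix.toLin' y x ∈ K) →
      Cfsg.Agent.Lib.Helper23.OHyp.Inv y K := by
    intro K h
    show K.map (Matrix.toLin' y) ≤ K
    rintro _ ⟨x, hx, rfl⟩
    exact h x hx
  have hinv_of : ∀ K : Submodule F (ι → F), Cfsg.Agent.Lib.Helper23.OHyp.Inv y K →
      ∀ x ∈ K, Matrix.toLin' y x ∈ K := fun K h x hx => h (Submodule.mem_map_of_mem hx)
  have hT : (Matrix.toLin' y : Module.End F (ι → F)) ^ r = 1 := by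
    rw [← Matrix.toLin'_pow, hStd.pow, Matrix.toLin'_one]
    rfl
  obtain ⟨π, K, hπm, hπd, hKR, hKinv, hKbig, hKker⟩ :=
    prim_core r hStd.prime hStd.ndvd (Matrix.toLin' y) hT R' (hinv_of R' hR'inv) hR'N
      (fun K hKR hKinv => hD F ι Q r y hStd K (hKR.trans hR'N) (hinv_iff K hKinv)) hbig
  obtain ⟨M, hMK, hMinv, hMdim⟩ := hSu F ι Q r y hStd K (hKR.trans hR'N) (hinv_iff K hKinv) 2
    (by omega)
  refine ⟨M, hMK.trans hKR, hMinv, by rw [hMdim, Nat.mul_comm], ?_⟩
  intro v hvM hv0
  obtain ⟨U, hUM, hUinv, hvU, hUdim⟩ := exists_cyc_inv π hπm hi hπd M (hinv_of M hMinv) v hvM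
    (hKker v (hMK hvM))
  refine ⟨U, hUM, hinv_iff U hUinv, hvU, ?_⟩
  obtain ⟨k, hk⟩ := hD F ι Q r y hStd U ((hUM.trans hMK).trans (hKR.trans hR'N))
    (hinv_iff U hUinv)
  have hpos : 0 < Module.finrank F ↥U := by
    rw [Module.finrank_pos_iff_exists_ne_zero]
    exact ⟨⟨v, hvU⟩, fun h => hv0 (congrArg Subtype.val h)⟩
  rw [hk] at hpos hUdim ⊢
  have hk0 : 0 < k := Nat.pos_of_ne_zero (by rintro rfl; simp at hpos)
  have h5 := Nat.mul_le_mul_left (ordI (Fintype.card F) r) hk0
  omega

end Cfsg.Agent.Lib.Helper61.OTSP
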