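-- Team project OTSP (S5973), package [EVEN] (helper61): `i` even, all isometries of order `r`
-- fix a t.s. `m`-space iff `AllEv` (glue of PLUSQ, FIXEV, PAIRS, SPREAD).
import Cfsg.Agent.Lib.Helper61.OTSP.FixOdd

set_option autoImplicit false
open scoped MatrixGroups
open Matrix

namespace Cfsg.Agent.Lib.Helper61.OTSP

open Cfsg.Agent.Lib.Helper23.OHyp Cfsg.Agent.Lib.Helper99.OTSP

universe u

/-- [EVEN] -/
theorem pkgEven_of (hP : Cfsg.Agent.Lib.Helper99.OTSP.PkgPlusQ.{u})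
    (hF : Cfsg.Agent.Lib.Helper99.OTSP.PkgFixEv.{u})
    (hPa : Cfsg.Agent.Lib.Helper99.OTSP.PkgPairs.{u})
    (hSp : Cfsg.Agent.Lib.Helper99.OTSP.PkgSpread.{u}) :
    Cfsg.Agent.Lib.Helper99.OTSP.PkgEven.{u} := by
  intro F _ _ d m r hr hr2 hrq hev hd
  obtain ⟨hnd, hplus⟩ := hP F d
  have hi : 0 < ordI (Fintype.card F) r := ordI_pos_otsp hr hrq
  have hcard : Fintype.card (Fin d ⊕ Fin d) = 2 * d := by
    rw [Fintype.card_sum, Fintype.card_fin]; omega
  have hstd : ∀ y : GL (Fin d ⊕ Fin d) F, y ∈ Cfsg.isometryGroup F (Cfsg.quadFormPlus d F) →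
      y ^ r = 1 →
      StdQ (Cfsg.quadFormPlus d F) r (y : Matrix (Fin d ⊕ Fin d) (Fin d ⊕ Fin d) F) := by
    intro y hy hyr
    refine ⟨hnd, hr, hr2, hrq, ?_, fun v => hy v v⟩
    rw [← Units.val_pow_eq_pow_val, hyr, Units.val_one]
  constructor
  · intro hall j hj1 hj2 hj3
    obtain ⟨y, hy, hyr, hydim, hybound⟩ := hSp F d r j hr hr2 hrq hev hj1 hj2 hj3
    have hy1 : y ≠ 1 := by
      rintro rfl
      have h0 : Module.finrank F
          ↥(movSp ((1 : GL (Fin d ⊕ Fin d) F) : Matrix (Fin d ⊕ Fin d) (Fin d ⊕ Fin d) F)) = 0 := by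
        have h1 : movSp ((1 : GL (Fin d ⊕ Fin d) F) :
            Matrix (Fin d ⊕ Fin d) (Fin d ⊕ Fin d) F) = ⊥ := by
          unfold movSp
          rw [Units.val_one, Matrix.toLin'_one, LinearMap.range_eq_bot]
          exact sub_self _
        rw [h1, finrank_bot]
      rw [h0] at hydim
      have h2 : 0 < ordI (Fintype.card F) r * j := Nat.mul_pos hi hj1
      omega
    have hfix := hall y hy hyr hy1
    obtain ⟨j', -, -, -, hj'dim, hcrit⟩ := hF F (Fin d ⊕ Fin d) (Cfsg.quadFormPlus d F) r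
      (y : Matrix (Fin d ⊕ Fin d) (Fin d ⊕ Fin d) F) (hstd y hy hyr) hplus d hcard hev
    have hjj : j' = j := by
      have h3 : ordI (Fintype.card F) r * j' = ordI (Fintype.card F) r * j := by
        rw [← hj'dim, hydim]
      exact Nat.eq_of_mul_eq_mul_left hi h3
    subst hjj
    exact (hcrit m _).1 hybound hfix
  · intro hall y hy hyr hy1
    obtain ⟨j, hj2, hj1, hj3, hjdim, hcrit⟩ := hF F (Fin d ⊕ Fin d) (Cfsg.quadFormPlus d F) r
      (y : Matrix (Fin d ⊕ Fin d) (Fin d ⊕ Fin d) F) (hstd y hy hyr) hplus d hcard hev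
    have hyne : (y : Matrix (Fin d ⊕ Fin d) (Fin d ⊕ Fin d) F) ≠ 1 :=
      fun h => hy1 (Units.val_eq_one.mp h)
    have hpairs := hPa F (Fin d ⊕ Fin d) (Cfsg.quadFormPlus d F) r
      (y : Matrix (Fin d ⊕ Fin d) (Fin d ⊕ Fin d) F) (hstd y hy hyr) hev
    have hdiv : Module.finrank F ↥(movSp (y : Matrix (Fin d ⊕ Fin d) (Fin d ⊕ Fin d) F)) /
        ordI (Fintype.card F) r = j := by
      rw [hjdim]; exact Nat.mul_div_cancel_left j hi
    rw [hdiv] at hpairs
    exact (hcrit m _).2 hpairs (hall j (hj1 hyne) hj2 hj3)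

end Cfsg.Agent.Lib.Helper61.OTSP
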